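import Mathlib
import Cfsg.Agent.Lib.MonK.Orc
import Cfsg.Agent.Lib.DCX.Rel
import Cfsg.Agent.Lib.Mon.Struct2
import Cfsg.Agent.Lib.CosetEnum.Pres

/-!
# Relations in a group with the amalgam of the Monster: the frame of the certificates
-/

set_option autoImplicit false

namespace CfsgLib.MonS

open Cfsg CfsgLib.Mon CfsgLib.Mon.Dce CfsgLib.DCX CfsgLib.MonK

variable {G : Type*} [Group G] {π : C k0 →* G} {τ : G}

/-- the amalgam together with the facts of the double coset enumeration -/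
structure MV (π : C k0 →* G) (τ : G) : Prop where
  am : MAm π τ
  val : Val elT1.get den ok π τ (Dce.KK π τ) fsT1.get 1787 1140

theorem MV.sys (h : MV π τ) (T : BT ℕ) : Sys opsK (BT.nd 1787 elT1 T).get R den ok π τ (Dce.KK π τ) :=
  orc.sys1 h.am ((BT.get_nd_left _ _ (by norm_num)).trans (elT1_lt (by norm_num)))

theorem MV.ext (h : MV π τ) {T : BT ℕ} {n : ℕ} (hn : ∀ m, 1787 ≤ m → m < n → ok ((BT.nd 1787 elT1 T).get m)) :
    Val (BT.nd 1787 elT1 T).get den ok π τ (Dce.KK π τ) fsT1.get n 1140 := by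
  have V := h.val.ext le_rfl (el' := (BT.nd 1787 elT1 T).get) (fun _ hm => BT.get_nd_left _ _ hm) (fun _ _ => rfl) bnd1_ok
  exact ⟨fun m hm => (lt_or_ge m 1787).elim (V.el m) fun e => hn m e hm, V.holds, V.okU, V.okW⟩

theorem isQ_t {d : ℕ} (h : isQ d 4669440 = true) : den d = tK := by
  rw [(isQ_sound h).2, cv_t0, tK_eq, show bit 4669440 24 = 0 from rfl]

theorem ev_eq_lvP {y : ℕ → G} {w : List ℕ} (h : ∀ x ∈ w, x % 2 = 1 → y (x - 1) * y x = 1) :
    CosetEnum.ev (fun i => y (2 * i)) w = lvP y w := by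
  refine congrArg List.prod (List.map_congr_left fun x hx => ?_)
  rw [CosetEnum.evL]
  split_ifs with e
  · rw [Nat.mul_div_cancel' (Nat.dvd_of_mod_eq_zero e)]
  · rw [show 2 * (x / 2) = x - 1 by omega]
    exact inv_eq_of_mul_eq_one_right (h x hx (by omega))

/-- relators in letters with inverses -/
theorem ev_one {y : ℕ → G} {ws rs : List (List ℕ)} (h : ∀ w ∈ ws, lvP y w = 1)
    (e : ∀ w ∈ rs, w ∈ ws ∧ ∀ x ∈ w, x % 2 = 1 → [x - 1, x] ∈ ws) :
    ∀ w ∈ rs, CosetEnum.ev (fun i => y (2 * i)) w = 1 := fun w hw => by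
  rw [ev_eq_lvP fun x hx e' => by simpa [lvP] using h _ ((e w hw).2 x hx e'), h w (e w hw).1]

end CfsgLib.MonS
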