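import Mathlib
import Cfsg.Agent.Lib.MonS.HnD
import Cfsg.Agent.Lib.MonS.HeD
import Cfsg.Agent.Lib.HN.Simple
import Cfsg.Agent.Lib.He.Main
import Cfsg.Agent.Lib.Mon.Struct3

/-!
# The groups of Harada–Norton and of Held in a group with the amalgam of the Monster
-/

set_option autoImplicit false
set_option maxRecDepth 100000

namespace CfsgLib.MonS

open Cfsg CfsgLib.Mon CfsgLib.DCX CfsgLib.MonK Subgroup

variable {G : Type*} [Group G] {π : C k0 →* G} {τ : G}

theorem inj_of_simple {K : Type*} [Group K] [IsSimpleGroup K] (φ : K →* G) {x : K} (h : φ x ≠ 1) :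
    Function.Injective φ :=
  φ.ker_eq_bot_iff.1 ((φ.normal_ker.eq_bot_or_eq_top).resolve_right fun e => h (MonoidHom.mem_ker.1 (e ▸ mem_top x)))

theorem ne_one_of_row {d j : ℕ} (h : ok d) (hj : j < 24) (e : vb ((d >>> (32 * j)) % 2 ^ 24) ≠ vb (2 ^ j)) :
    den d ≠ 1 := fun e' => e (by rw [h.vb_row hj, e', cact_one])

theorem mem_cent {x y : G} : y ∈ centralizer {x} ↔ Commute x y :=
  mem_centralizer_singleton_iff.trans ⟨fun h => h.symm, fun h => h.symm⟩

theorem commute_of_conj {a b : G} (h : a * b * a⁻¹ * b⁻¹ = 1) : Commute a b :=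
  commutatorElement_eq_one_iff_commute.1 h

theorem orderOf_eq_of_prime {x : G} {p : ℕ} (hp : p.Prime) (h : x ^ p = 1) (h1 : x ≠ 1) : orderOf x = p :=
  haveI := Fact.mk hp; orderOf_eq_prime h h1

theorem tH : isQ (elH.get 1791) 4669440 = true := by decide +kernel

theorem MV.exists_HN (h : MV π τ) (hi : Function.Injective π) : ∃ f : Spor.HN →* G, Function.Injective f ∧
    (∀ k, f k ∈ centralizer {π tK}) ∧ ∃ x, orderOf x = 5 ∧ ∀ k, f k ∈ centralizer {x} := by
  have r := oneH h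
  have m := memH h
  have e4 : yH π τ 4 = π (den (elH.get 1789)) := wv_one _ _ _
  have e10 : yH π τ 10 = π tK := (wv_one _ _ _).trans (congrArg π (isQ_t tH))
  have n4 : yH π τ 4 ≠ 1 := fun e => ne_one_of_row ((valH h).el 1789 (by norm_num)) (j := 0) (by norm_num)
    (by decide +kernel) (hi (e4.symm.trans (e.trans π.map_one.symm)))
  generalize yH π τ = y at r m e4 e10 n4
  have hr := ev_one r (rs := CosetEnum.sqW [2] ++ HN.RH ++ HN.Rt) (by decide +kernel)
  have hg : ∀ H : Subgroup G, (∀ i < 4, y (2 * i) ∈ H) → ∀ k, HN.liftHN hr k ∈ H := fun H hH =>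
    PresentedGroup.generated_by _ (H.comap (HN.liftHN hr)) fun a => by
      have ha : HN.idx a < 4 := by cases a <;> decide
      rw [mem_comap, ← HN.hg, HN.liftHN_g hr ha]; exact hH _ ha
  have := HN.simple
  have hf : Function.Injective (HN.liftHN hr) :=
    inj_of_simple _ (x := HN.g 2) (by rwa [HN.liftHN_g hr (by norm_num)])
  have i1 : y 1 = (y 0)⁻¹ := eq_inv_of_mul_eq_one_right (by simpa [lvP] using r [0, 1] (by decide))
  have i3 : y 3 = (y 2)⁻¹ := eq_inv_of_mul_eq_one_right (by simpa [lvP] using r [2, 3] (by decide))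
  have i4 : (y 4)⁻¹ = y 4 := inv_eq_of_mul_eq_one_right (by simpa [lvP] using r [4, 4] (by decide))
  have i7 : y 7 = (y 6)⁻¹ := eq_inv_of_mul_eq_one_right (by simpa [lvP] using r [6, 7] (by decide))
  have i9 : y 9 = (y 8)⁻¹ := eq_inv_of_mul_eq_one_right (by simpa [lvP] using r [8, 9] (by decide))
  have t5 : y 6 ^ 5 = 1 := by simpa [lvP, pow_succ, mul_assoc] using r [6, 6, 6, 6, 6] (by decide)
  have n6 : y 6 ≠ 1 := fun e => n4 (by
    have k1 := r [4, 6, 4, 6, 4, 6] (by decide)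
    have k2 := r [4, 4] (by decide)
    simp only [lvP_cons, lvP_nil, e, mul_one, one_mul] at k1 k2
    rwa [k2, mul_one] at k1)
  have m6 : Commute (π tK) (y 6) := mem_cent.1 (by simpa [lvP] using m [6] (by decide))
  refine ⟨_, hf, hg _ fun i hi => ?_, y 8 * y 6 * (y 8)⁻¹, ?_, hg _ fun i hi => mem_cent.2 ?_⟩
  · simpa [lvP] using m [2 * i] (by revert i; decide)
  · exact orderOf_eq_of_prime (by norm_num) (by rw [conj_pow, t5]; simp) (by simpa using n6)
  interval_cases i
  · exact commute_of_conj (by simpa [lvP, i1, i7, i9, mul_assoc] using r [8, 6, 9, 0, 8, 7, 9, 1] (by decide))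
  · exact commute_of_conj (by simpa [lvP, i3, i7, i9, mul_assoc] using r [8, 6, 9, 2, 8, 7, 9, 3] (by decide))
  · exact commute_of_conj (by simpa [lvP, i4, i7, i9, mul_assoc] using r [8, 6, 9, 4, 8, 7, 9, 4] (by decide))
  have p5 : (y 8 * y 6 * (y 8)⁻¹) ^ 5 = 1 := by rw [conj_pow, t5]; simp
  have k1 : π tK * (y 8 * y 6 * (y 8)⁻¹) * π tK * (y 8 * y 6 * (y 8)⁻¹) = 1 := by
    simpa [lvP, e10, i9, mul_assoc] using r [10, 8, 6, 9, 10, 8, 6, 9] (by decide)
  have k2 : Commute (π tK) ((y 8 * y 6 * (y 8)⁻¹) * y 6 * (y 8 * y 6 * (y 8)⁻¹)⁻¹) :=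
    mem_cent.1 (by simpa [lvP, i7, i9, mul_assoc] using m [8, 6, 9, 6, 8, 7, 9] (by decide))
  generalize y 8 * y 6 * (y 8)⁻¹ = φ at p5 k1 k2
  have k3 : Commute (φ⁻¹ * π tK * φ) (y 6) := by simpa [mul_assoc] using k2.conj φ⁻¹
  have k4 : φ⁻¹ * π tK * φ = π tK * φ ^ 2 := by
    rw [← eq_inv_of_mul_eq_one_left k1, mul_assoc (π tK * φ), ← map_mul, tK_mul_self, map_one, mul_one, mul_assoc, sq]
  have k5 := m6.inv_left.mul_left (k4 ▸ k3)
  rw [inv_mul_cancel_left] at k5
  have k6 := k5.pow_left 3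
  rwa [← pow_mul, pow_succ, p5, one_mul] at k6

theorem tE : isQ (elE.get 1787) 4669440 = true := by decide +kernel

theorem MV.exists_He (h : MV π τ) (hi : Function.Injective π) : ∃ f : Spor.He →* G, Function.Injective f ∧
    ∃ x, orderOf x = 7 ∧ ∀ k, f k ∈ centralizer {x} := by
  have r := oneE h
  have m := memE h
  have e0 : yE π τ 0 = π tK := (wv_one _ _ _).trans (congrArg π (isQ_t tE))
  have e14 : yE π τ 14 = π (den (elE.get 1793)) := wv_one _ _ _
  have n14 : yE π τ 14 ≠ 1 := fun e => ne_one_of_row ((valE h).el 1793 (by norm_num)) (j := 0) (by norm_num)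
    (by decide +kernel) (hi (e14.symm.trans (e.trans π.map_one.symm)))
  generalize yE π τ = y at r m e0 e14 n14
  have sq : ∀ i < 7, y (2 * i) * y (2 * i) = 1 := fun i hi => by
    simpa [lvP] using r [2 * i, 2 * i] (by revert i; decide)
  have iv : ∀ i < 7, (y (2 * i))⁻¹ = y (2 * i) := fun i hi => inv_eq_of_mul_eq_one_right (sq i hi)
  have i15 : y 15 = (y 14)⁻¹ := eq_inv_of_mul_eq_one_right (by simpa [lvP] using r [14, 15] (by decide))
  have i17 : y 17 = (y 16)⁻¹ := eq_inv_of_mul_eq_one_right (by simpa [lvP] using r [16, 17] (by decide))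
  have bd : lvP y [2, 6, 2, 6] = 1 := by
    have k1 : (y 16 * y 6 * y 8)⁻¹ * y 0 * (y 16 * y 6 * y 8) * ((y 0 * y 2) ^ 2 * y 6) = 1 := by
      simpa [lvP, i17, iv 3, iv 4, mul_assoc, pow_two] using r [8, 6, 17, 0, 16, 6, 8, 0, 2, 0, 2, 6] (by decide)
    have k2 : Commute (y 0) (y 16 * y 6 * y 8 * y 2 * (y 16 * y 6 * y 8)⁻¹) :=
      e0 ▸ mem_cent.1 (by simpa [lvP, i17, iv 3, iv 4, mul_assoc] using m [16, 6, 8, 2, 8, 6, 17] (by decide))
    have k3 : Commute ((y 16 * y 6 * y 8)⁻¹ * y 0 * (y 16 * y 6 * y 8)) (y 2) := by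
      generalize y 16 * y 6 * y 8 = w at k2
      simpa [mul_assoc] using k2.conj w⁻¹
    rw [eq_inv_of_mul_eq_one_left k1, Commute.inv_left_iff] at k3
    have k4 : (y 0 * y 2) ^ 2 * (y 0 * y 2) ^ 2 = 1 := by
      simpa [lvP, mul_assoc, pow_two] using r [0, 2, 0, 2, 0, 2, 0, 2] (by decide)
    have k5 : Commute ((y 0 * y 2) ^ 2) (y 2) := by
      have : y 2 * (y 0 * y 2) ^ 2 * (y 2)⁻¹ = ((y 0 * y 2) ^ 2)⁻¹ := by simp [pow_two, iv 0, iv 1, sq 1, mul_assoc]
      rw [inv_eq_of_mul_eq_one_right k4, mul_inv_eq_iff_eq_mul] at this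
      exact this.symm
    have k6 : Commute (y 6) (y 2) := by simpa only [inv_mul_cancel_left] using k5.inv_left.mul_left k3
    simp only [lvP_cons, lvP_nil, mul_one]
    rw [← mul_assoc (y 6), k6.eq, mul_assoc, sq 3 (by norm_num), mul_one, sq 1 (by norm_num)]
  have hr := ev_one (ws := [2, 6, 2, 6] :: wsE) (List.forall_mem_cons.2 ⟨bd, r⟩)
    (rs := CosetEnum.sqW [0, 1, 2, 3, 4, 5, 6] ++ He.M0_rels) (by decide +kernel)
  let f : Spor.He →* G := PresentedGroup.toGroup (He.lift_rel (CosetEnum.invOk_of_sqW fun w hw =>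
    hr w (List.mem_append_left _ hw)) fun w hw => hr w (List.mem_append_right _ hw))
  have hf : ∀ u, f (PresentedGroup.of u) = y (2 * He.idx u) := fun u => PresentedGroup.toGroup.of _
  have := He.simple
  refine ⟨f, inj_of_simple _ (x := PresentedGroup.of .a) fun e => tKK_ne_one (Subtype.ext (hi ?_)), y 14,
    orderOf_eq_of_prime (by norm_num) (by simpa [lvP_rep, lvP_cons, lvP_nil] using r (rep [14] 7) (by decide)) n14,
    PresentedGroup.generated_by _ ((centralizer _).comap f) fun u => ?_⟩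
  · exact e0.symm.trans ((hf .a).symm.trans (e.trans π.map_one.symm))
  · have ha : He.idx u < 7 := by cases u <;> decide
    rw [mem_comap, hf, mem_cent]
    exact commute_of_conj (by
      simpa [lvP, i15, iv _ ha, mul_assoc] using r [14, 2 * He.idx u, 15, 2 * He.idx u] (by cases u <;> decide))

end CfsgLib.MonS
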