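import Mathlib
import Cfsg.Agent.Lib.MonS.ThD
import Cfsg.Agent.Lib.MonS.Hn
import Cfsg.Agent.Lib.Th.Cls
import Cfsg.Agent.Lib.MType.C3B

/-!
# The Thompson group in a group with the amalgam of the Monster
-/

set_option autoImplicit false
set_option maxRecDepth 100000

namespace CfsgLib.MonS

open Cfsg CfsgLib.Mon CfsgLib.DCX CfsgLib.MonK CfsgLib.MType CfsgLib.Leech Subgroup

variable {G : Type*} [Group G] {π : C k0 →* G} {τ : G}

theorem toCo1_of_sim {g : Co0} {F : ℕ → ℕ} {d : ℕ} (hs : Sim g F) (h : ok d) (e : simOK F d = true) :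
    toCo1 k0 (den d) = QuotientGroup.mk g := by
  obtain ⟨h1, h2, -⟩ := simOK_sound hs e
  obtain ⟨y, rfl⟩ := Chat.exists_g (κ := k0) g
  refine (toCo1_eq_iff.2 (addHom_ext (fun i => ?_) fun i => ?_)).trans (toCo1_mk y)
  · rw [cact_mk, ← h1, (h.row (by omega)).1, bs_X]
  · rw [cact_mk, ← h2, (h.row (by omega)).1, bs_Z]

theorem card_cent_3B {c : C k0} (h3 : c ^ 3 = 1) (hc : toCo1 k0 c = QuotientGroup.mk (permAut C3B.σ)) :
    Nat.card (centralizer ({c} : Set (C k0))) ≤ 278691840 := by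
  obtain ⟨κ, k1, k2⟩ := C3B.fd.exists_kappa (r := 8) rfl
  have h1 := mt_C.card_fix (n := 3) (by decide) (b := ⟨c, by rw [centralizer_z]; trivial⟩) h3 hc.symm κ k1 k2
  have h2 : ((centralizer {c}).map (toCo1 k0)).comap (QuotientGroup.mk' (center Co0)) ≤ centralizer {permAut C3B.σ} := by
    rintro g ⟨k, hk, e⟩
    refine mem_centralizer_singleton_iff.2 (comm_of_mk_comm (n := 3) (by decide)
      (by rw [← C3B.ord, ← orderOf_permAut, pow_orderOf_eq_one]) ?_)
    rw [← hc, show (QuotientGroup.mk g : Spor.Co1) = toCo1 k0 k from e.symm, ← map_mul, ← map_mul,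
      mem_centralizer_singleton_iff.1 hk]
  have h4 := (card_le_of_le h2).trans C3B.card_le
  rw [card_comap_co1, ← relIndex_ker, ker_toCo1] at h4
  have h5 : centralizer (zpowers c : Set (C k0)) = centralizer {c} :=
    Subgroup.ext fun x => mem_cent_zpowers.trans (mem_centralizer_singleton_iff.trans eq_comm).symm
  rw [h5, ← Nat.card_congr (subgroupOfEquivOfLe inf_le_right).toEquiv, inf_subgroupOf_right] at h1
  rw [← ((Q k0).subgroupOf (centralizer {c})).card_mul_index, h1, ← relIndex]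
  omega

theorem tT : isQ (elT.get 1796) 4669440 = true := by decide +kernel

theorem zT : isQ (elT.get 1787) 16777216 = true := by decide +kernel

theorem xT : simOK (fun N => Mathieu.comp N C3B.sgi) (elT.get 1794) = true := by decide +kernel

theorem MV.exists_Th (h : MV π τ) (hi : Function.Injective π) : ∃ f : Spor.Th →* G, Function.Injective f ∧
    f (Th.g 0) = π (z k0) ∧ (∃ b, IsConj (π tK) b ∧ ∀ k, f k ∈ centralizer {b}) ∧
    ∃ c : C k0, c ^ 3 = 1 ∧ toCo1 k0 c = QuotientGroup.mk (permAut C3B.σ) ∧ ∀ k, f k ∈ centralizer {π c} := by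
  have r := oneT h
  have m := memT h
  have e0 : yT π τ 0 = π (z k0) := (wv_one _ _ _).trans (congrArg π (isQ_z zT).2)
  have e22 : yT π τ 22 = π tK := (wv_one _ _ _).trans (congrArg π (isQ_t tT))
  have e16 : yT π τ 16 = π (den (elT.get 1794)) := wv_one _ _ _
  generalize yT π τ = y at r m e0 e22 e16
  have hr := ev_one r (rs := Th.RG) (by decide +kernel)
  have hg : ∀ H : Subgroup G, (∀ i < 8, y (2 * i) ∈ H) → ∀ k, Th.liftTh hr k ∈ H := fun H hH =>
    PresentedGroup.generated_by _ (H.comap (Th.liftTh hr)) fun j => by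
      have ha : Th.idx j < 8 := by cases j <;> decide
      rw [mem_comap, ← Th.hg, Th.liftTh_g hr ha]; exact hH _ ha
  have f0 : Th.liftTh hr (Th.g 0) = π (z k0) := (Th.liftTh_g hr (by norm_num)).trans e0
  have iv : ∀ a b, [a, b] ∈ wsT → y b = (y a)⁻¹ := fun a b e => eq_inv_of_mul_eq_one_right (by simpa [lvP] using r _ e)
  have cm : ∀ a b c d, [a, b, c, d] ∈ wsT ∧ [a, c] ∈ wsT ∧ [b, d] ∈ wsT → Commute (y a) (y b) := fun a b c d e =>
    commute_of_conj (by simpa [lvP, iv _ _ e.2.1, iv _ _ e.2.2, mul_assoc] using r _ e.1)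
  refine ⟨_, inj_of_simple _ (x := Th.g 0) fun e => z_ne_one (hi (f0.symm.trans (e.trans π.map_one.symm))), f0,
    ⟨y 18, isConj_iff.2 ⟨y 20, ?_⟩, hg _ fun i hi => mem_cent.2 ?_⟩, _, hi ?_,
    toCo1_of_sim C3B.sim ((valT h).el 1794 (by norm_num)) xT, hg _ fun i hi => e16 ▸ mem_cent.2 ?_⟩
  · have k1 : (y 20)⁻¹ * y 18 * y 20 * π tK = 1 := by
      simpa [lvP, iv 20 21 (by decide), e22, mul_assoc] using r [21, 18, 20, 22] (by decide)
    rw [← inv_eq_of_mul_eq_one_right tK_mul_self, map_inv, ← eq_inv_of_mul_eq_one_left k1]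
    simp [mul_assoc]
  · exact cm 18 _ 18 (if i < 5 then 2 * i else 2 * i + 1) (by revert i; decide)
  · simpa [lvP, e16, pow_succ, mul_assoc] using r [16, 16, 16] (by decide)
  by_cases h1 : i = 1
  swap
  · exact cm 16 _ 17 (if i < 5 then 2 * i else 2 * i + 1) (by interval_cases i <;> first | decide | exact absurd rfl h1)
  have i0 := (iv 0 0 (by decide)).symm
  have i2 := (iv 2 2 (by decide)).symm
  have k1 : (y 24 * y 2 * y 0)⁻¹ * y 22 * (y 24 * y 2 * y 0) * (y 22 * y 2) = 1 := by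
    simpa [lvP, iv 24 25 (by decide), i0, i2, mul_assoc] using r [0, 2, 25, 22, 24, 2, 0, 22, 2] (by decide)
  have k2 : (y 26 * y 2 * y 0)⁻¹ * y 22 * (y 26 * y 2 * y 0) * ((y 16)⁻¹ * y 22 * y 16 * y 2) = 1 := by
    simpa [lvP, iv 26 27 (by decide), iv 16 17 (by decide), i0, i2, mul_assoc] using
      r [0, 2, 27, 22, 26, 2, 0, 17, 22, 16, 2] (by decide)
  have k3 : Commute (y 22) (y 24 * y 2 * y 0 * y 16 * (y 26 * y 2 * y 0)⁻¹) :=
    e22 ▸ mem_cent.1 (by simpa [lvP, iv 26 27 (by decide), i0, i2, mul_assoc] using m [24, 2, 0, 16, 0, 2, 27] (by decide))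
  generalize y 24 * y 2 * y 0 = v at k1 k3
  generalize y 26 * y 2 * y 0 = w at k2 k3
  have k4 : y 16 * (w⁻¹ * y 22 * w) * (y 16)⁻¹ = v⁻¹ * y 22 * v := by
    have := congrArg (fun s => v⁻¹ * s * w * (y 16)⁻¹) k3.eq
    simpa [mul_assoc] using this.symm
  rw [eq_inv_of_mul_eq_one_left k1, eq_inv_of_mul_eq_one_left k2] at k4
  have k5 := congrArg (fun s => (y 22)⁻¹ * s⁻¹ * y 16) k4
  subst h1
  simpa [mul_assoc, commute_iff_eq] using k5

end CfsgLib.MonS
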